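import Cfsg.Agent.H185.S8.MinDeg
import Cfsg.Agent.H34.PerfThree

/-!
# S4908, SOLV: the numerical engine for the minimal degree (helper515)

`core` : if `L` is normal in the solvable group `G` and `G / L` is not abelian then some nonlinear degree `f` of `G / L`
is not killed by `cd(G)` (Isaacs 12.3, 12.4);
`solv_of_numMin` : `NumMin D → Solv D` (with helper185's `exists_quotient`).
-/

set_option autoImplicit false

namespace Cfsg.Agent.H515.S8

open Cfsg Cfsg.Agent.Characters.Core Cfsg.Agent.H681 Cfsg.Agent.H681.DegBasic Cfsg.Agent.H704.S8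
open Cfsg.Agent.H34

universe u

/-- a normal abelian subgroup on whose nontrivial elements the quotient acts freely -/
theorem modEq_of_free {Q : Type u} [Group Q] [Finite Q] (V : Subgroup Q) [V.Normal]
    (hab : ∀ g ∈ V, ∀ v ∈ V, g * v = v * g) (hfpf : ∀ g, g ∉ V → ∀ v ∈ V, g * v = v * g → v = 1) :
    Nat.card V ≡ 1 [MOD V.index] := by
  classical
  let i1 : CommGroup V := { (inferInstance : Group V) with
    mul_comm := fun a b => Subtype.ext (hab a a.2 b b.2) }
  let i2 : MulDistribMulAction Q V := MulDistribMulAction.compHom V (MulAut.conjNormal : Q →* MulAut V)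
  obtain ⟨l, hl, hs⟩ := H185.S8.exists_orbits (H := Q) (V := V)
  have hst : ∀ v : V, v ≠ 1 → MulAction.stabilizer Q v = V := by
    intro v hv
    ext g
    rw [MulAction.mem_stabilizer_iff]
    have h1 : g • v = v ↔ g * v = v * g := by
      change MulAut.conjNormal g v = v ↔ _
      rw [Subtype.ext_iff, MulAut.conjNormal_apply, mul_inv_eq_iff_eq_mul]
    rw [h1]
    constructor
    · intro h
      by_contra hg
      exact hv (Subtype.ext (hfpf g hg v v.2 h))
    · intro hg
      exact hab g hg v v.2
  have h1 : ∀ o ∈ l, V.index ∣ o := by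
    intro o ho
    obtain ⟨v, hv, rfl⟩ := hl o ho
    rw [hst v hv]
  obtain ⟨t, ht⟩ := Multiset.dvd_sum h1
  rw [← hs, ht]
  change (V.index * t + 1) % V.index = 1 % V.index
  rw [Nat.mul_add_mod]

/-- The dichotomy, relative to a surjection on a minimal nonabelian solvable group. -/
theorem cases_of_surj' {G Q : Type*} [Group G] [Finite G] [Group Q] [Finite Q] [Group.IsSolvable Q]
    (π : G →* Q) (hπ : Function.Surjective π) (h1 : commutator Q ≠ ⊥)
    (hmin : ∀ M : Subgroup Q, M.Normal → M ≠ ⊥ → commutator Q ≤ M) :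
    ∃ (p : ℕ) (f : ℕ), p.Prime ∧ 1 < f ∧ f ∈ charDegrees Q ∧
      (((∃ b, f = p ^ b) ∧ ∀ n ∈ charDegrees G, p ∣ n ∨ f * n ∈ charDegrees G) ∨
        (f.Coprime p ∧ ∃ N : Subgroup G, ∃ _ : N.Normal, N.index = f ∧
          ∃ m : ℕ, 0 < m ∧ f < p ^ m ∧ p ^ m ≡ 1 [MOD f] ∧
            ∀ (ψ : N → ℂ), IsIrrCharacter N ψ → ∀ d : ℕ, ψ 1 = d → p ^ m ∣ d ^ 2 ∨ f * d ∈ charDegrees G)) := by
  classical
  have := Fintype.ofFinite G
  have hab := MinNonab.comm_of_mem h1 hmin
  obtain ⟨p, hp, hexp⟩ := MinNonab.exists_prime h1 hab hmin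
  have hpf := Fact.mk hp
  by_cases hZ : Subgroup.center Q = ⊥
  · -- Frobenius case
    have hfpf := MinNonab.fixedPointFree hab hmin h1 hZ
    have hidx : 1 < (commutator Q).index := by
      have h0 : (commutator Q).index ≠ 0 := Subgroup.index_ne_zero_of_finite
      have h2 : (commutator Q).index ≠ 1 := by
        intro h
        rw [Subgroup.index_eq_one] at h
        apply h1
        rw [eq_bot_iff, ← hZ]
        intro v hv
        rw [Subgroup.mem_center_iff]
        intro g
        exact hab g (h ▸ Subgroup.mem_top g) v hv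
      omega
    -- `f` is coprime to `p`
    have hcop : (commutator Q).index.Coprime p := by
      rw [Nat.coprime_comm, hp.coprime_iff_not_dvd]
      intro hdvd
      -- a `p`-element outside `V` acts with fixed points on `V`
      have hVp : IsPGroup p (commutator Q) := by
        intro v
        exact ⟨1, Subtype.ext (by simpa using hexp v v.2)⟩
      obtain ⟨P, hP⟩ := hVp.exists_le_sylow
      -- `P ≠ V`
      have hne : ∃ x ∈ (P : Subgroup Q), x ∉ commutator Q := by
        by_contra hcon
        push Not at hcon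
        have heq : (P : Subgroup Q) = commutator Q := le_antisymm hcon hP
        apply P.not_dvd_index
        rw [heq]
        exact hdvd
      obtain ⟨x, hxP, hxV⟩ := hne
      -- `Z(P) ∩ V ≠ 1`
      have hPp : IsPGroup p (P : Subgroup Q) := P.isPGroup'
      let V' : Subgroup (P : Subgroup Q) := (commutator Q).subgroupOf P
      have hV'n : V'.Normal := inferInstance
      have hV'1 : V' ≠ ⊥ := by
        intro h
        apply h1
        rw [eq_bot_iff]
        intro v hv
        have : (⟨v, hP hv⟩ : (P : Subgroup Q)) ∈ V' := Subgroup.mem_subgroupOf.2 hv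
        rw [h, Subgroup.mem_bot] at this
        exact Subgroup.mem_bot.2 (congrArg Subtype.val this)
      obtain ⟨z, hz1, hz2, hz⟩ :=
        Cfsg.Agent.Transfer.PGroupNormal.exists_mem_inf_center_orderOf hPp V' hV'1
      have hz3 : (z : Q) ∈ commutator Q := Subgroup.mem_subgroupOf.1 hz1
      have hz4 := Subgroup.mem_center_iff.1 hz2 ⟨x, hxP⟩
      have hz5 : x * (z : Q) = z * x := congrArg Subtype.val hz4
      have hz6 := hfpf x hxV z hz3 hz5
      have hz7 : z = 1 := Subtype.ext hz6
      rw [hz7, orderOf_one] at hz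
      exact hp.one_lt.ne hz
    have hVp : IsPGroup p (commutator Q) := by
      intro v
      exact ⟨1, Subtype.ext (by simpa using hexp v v.2)⟩
    obtain ⟨m, hm⟩ := IsPGroup.iff_card.1 hVp
    have hlt := FrobDeg.index_lt (commutator Q) hfpf h1
    rw [hm] at hlt
    have hm0 : 0 < m := by
      rcases Nat.eq_zero_or_pos m with h0 | h0
      · rw [h0, pow_zero] at hlt
        omega
      · exact h0
    have hfQ : (commutator Q).index ∈ charDegrees Q := by
      have := Fintype.ofFinite Q
      have h2 := Frob.index_mul_mem_or (commutator Q) (MonoidHom.id Q) Function.surjective_id hab hfpf (commutator Q) rfl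
        (isIrr_one (G := commutator Q)) (d := 1) (by simp)
      rw [hm, mul_one, one_pow] at h2
      rcases h2 with h2 | h2
      · exact h2
      · exfalso
        have h3 := Nat.le_of_dvd one_pos h2
        omega
    have hmod : p ^ m ≡ 1 [MOD (commutator Q).index] := by
      rw [← hm]
      exact modEq_of_free (commutator Q) hab hfpf
    refine ⟨p, (commutator Q).index, hp, hidx, hfQ, Or.inr ⟨hcop, (commutator Q).comap π,
      (inferInstance : (commutator Q).Normal).comap _, ?_, m, hm0, hlt, hmod, ?_⟩⟩
    · exact Subgroup.index_comap_of_surjective _ hπ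
    · intro ψ hψ d hψd
      have hNn : ((commutator Q).comap π).Normal := (inferInstance : (commutator Q).Normal).comap _
      have h2 := Frob.index_mul_mem_or (commutator Q) π hπ hab hfpf ((commutator Q).comap π) rfl hψ hψd
      rw [hm] at h2
      exact h2.symm
  · -- the `p`-group case
    have hPG : IsPGroup p Q := MinNonab.isPGroup_of_center h1 hp hexp hmin hZ
    obtain ⟨a, ha⟩ := IsPGroup.iff_card.1 hPG
    -- a nonlinear irreducible character of the quotient
    obtain ⟨f, hf, hf1⟩ : ∃ f ∈ charDegrees Q, f ≠ 1 := by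
      by_contra hcon
      push Not at hcon
      apply h1
      have hall : ∀ χ : IrrCharacter Q, (χ : Q → ℂ) 1 = 1 := by
        intro χ
        obtain ⟨m, hm, hm'⟩ := isIrr_apply_one χ.2
        have := hcon m (mem_charDegrees.2 ⟨χ, χ.2, hm'⟩)
        rw [hm', this, Nat.cast_one]
      have hc := S0187.result.2 hall
      rw [commutator_eq_bot_iff_center_eq_top, Subgroup.eq_top_iff']
      intro x
      rw [Subgroup.mem_center_iff]
      intro y
      exact hc y x
    have hfp : ∃ b, f = p ^ b := by
      have h2 := dvd_card hf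
      rw [ha] at h2
      obtain ⟨b, -, hb⟩ := (Nat.dvd_prime_pow hp).1 h2
      exact ⟨b, hb⟩
    have hfpos := pos_of_mem hf
    refine ⟨p, f, hp, by omega, hf, Or.inl ⟨hfp, ?_⟩⟩
    intro n hn
    by_cases hpn : p ∣ n
    · exact Or.inl hpn
    · right
      obtain ⟨χ, hχ, hχn⟩ := mem_charDegrees.1 hn
      have := Fintype.ofFinite π.ker
      obtain ⟨ψ, d, hψ, hψd, hne, hd1, hd2⟩ := exists_constituent π.ker hχ hχn
      have hidx : π.ker.index = p ^ a := by
        rw [← ha]
        have := Nat.card_congr (QuotientGroup.quotientKerEquivOfSurjective π hπ).toEquiv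
        exact this
      rw [hidx] at hd2
      have hnd : n / d = 1 := by
        have h2 : n / d ∣ n := Nat.div_dvd_of_dvd hd1
        have h3 : (n / d).Coprime (p ^ a) := by
          refine Nat.Coprime.pow_right a ?_
          rw [Nat.coprime_comm, hp.coprime_iff_not_dvd]
          exact fun h => hpn (h.trans h2)
        exact Nat.eq_one_of_dvd_coprimes h3 dvd_rfl hd2
      have hdn : d = n := by
        have := Nat.div_mul_cancel hd1
        rw [hnd, one_mul] at this
        exact this
      have hres := restrict_eq_of_degree π.ker (isIrr_isCharacter hχ) hψ hne (by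
        rw [hχn, hψd, hdn])
      exact gallagher π hπ π.ker (fun k hk => hk) hχ (by rw [hres]; exact hψ) hχn hf


/-- **the core**: a nonlinear degree of `G / L` which is not killed -/
theorem core_kill {G : Type u} [Group G] [Finite G] [Group.IsSolvable G] (L : Subgroup G) [L.Normal]
    (hL : ¬ commutator G ≤ L) : ∃ f ∈ charDegrees (G ⧸ L), 1 < f ∧ ¬ Kill (charDegrees G) f := by
  classical
  have := Fintype.ofFinite G
  have hπ := QuotientGroup.mk'_surjective L
  have hmap : commutator (G ⧸ L) = (commutator G).map (QuotientGroup.mk' L) := by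
    rw [commutator_def, commutator_def, Subgroup.map_commutator,
      Subgroup.map_top_of_surjective _ hπ]
  have hne : commutator (G ⧸ L) ≠ ⊥ := by
    intro h
    rw [hmap, Subgroup.map_eq_bot_iff, QuotientGroup.ker_mk'] at h
    exact hL h
  have hsol : Group.IsSolvable (G ⧸ L) := Group.isSolvable_of_surjective hπ
  obtain ⟨K, hKn, h1, hmin⟩ := MinNonab.exists_quotient hne
  have hsolK : Group.IsSolvable ((G ⧸ L) ⧸ K) :=
    Group.isSolvable_of_surjective (QuotientGroup.mk'_surjective K)
  obtain ⟨p, f, hp, hf, hfQ, hc⟩ := cases_of_surj' ((QuotientGroup.mk' K).comp (QuotientGroup.mk' L))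
    ((QuotientGroup.mk'_surjective K).comp hπ) h1 hmin
  refine ⟨f, H424.DegTools.charDegrees_of_surjective (QuotientGroup.mk' K) (QuotientGroup.mk'_surjective K) hfQ, hf, ?_⟩
  rintro ⟨hk1, hk2⟩
  rcases hc with ⟨⟨b, hb⟩, hc⟩ | ⟨-, N, hN, hNf, m, hm, -, hmod, hc⟩
  · obtain ⟨d, hd, hpd, hdf⟩ := hk1 p b hp hb
    rcases hc d hd with h | h
    · exact hpd h
    · exact hdf (by rwa [mul_comm] at h)
  · have := Fintype.ofFinite N
    obtain ⟨d, hd, hk⟩ := hk2 p m hp hm hmod
    obtain ⟨χ, hχ, hχd⟩ := mem_charDegrees.1 hd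
    obtain ⟨ψ, e, hψ, hψe, -, he1, he2⟩ := exists_constituent N hχ hχd
    rw [hNf] at he2
    obtain ⟨h3, h4⟩ := hk e he1 he2
    rcases hc ψ hψ e hψe with h | h
    · exact h4 h
    · exact h3 h

/-- **E2**: only the minimal degree has to be killed -/
theorem solv_of_numMin {D : Set ℕ} (h : NumMin D) : Solv.{u} D := by
  intro G _ _ hs hD
  obtain ⟨m, hm, hm1, hmin, hkill, hsc⟩ := h
  subst hD
  obtain ⟨L, hL, hL1, hL2⟩ := H185.S8.exists_quotient hm1 hm hmin hsc
  obtain ⟨f, hf, hf1, hk⟩ := core_kill L hL1
  rcases hL2 f hf with h1 | h1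
  · omega
  · subst h1
    exact hk hkill

end Cfsg.Agent.H515.S8
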